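import Cfsg.Agent.Lib.Schur.Metacyclic

/-!
Stem extensions of dihedral groups; the dicyclic group as a stem extension of the dihedral group.
-/

set_option autoImplicit false

namespace CfsgLib.Schur

open Subgroup DihedralGroup
open scoped commutatorElement

theorem dihedral_closure_pair (n : ℕ) [NeZero n] :
    closure {(r 1 : DihedralGroup n), sr 0} = ⊤ := by
  rw [eq_top_iff]
  have h : ∀ i : ZMod n, (r i : DihedralGroup n) ∈ closure {(r 1 : DihedralGroup n), sr 0} := by
    intro i
    have : (r i : DihedralGroup n) = r 1 ^ i.val := by simp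
    rw [this]
    exact pow_mem (subset_closure (by simp)) _
  rintro (i | i) _
  · exact h i
  · have : (sr i : DihedralGroup n) = sr 0 * r i := by simp
    rw [this]
    exact mul_mem (subset_closure (by simp)) (h i)

theorem dihedral_stem {n : ℕ} [NeZero n] {Γ : Type*} [Group Γ] [Finite Γ]
    {σ : Γ →* DihedralGroup n} (hσ : Cfsg.IsStemExtension σ) :
    ∃ c : Γ, σ.ker ≤ zpowers (c ^ (n / n.gcd 2)) ∧ σ (c ^ (n / n.gcd 2)) = 1 ∧ c ^ n = 1 := by
  obtain ⟨u, v, hu, hv, h, h1, h2⟩ := stem_metacyclic hσ (r := -1) (dihedral_closure_pair n)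
    (by simp)
  have h0 : orderOf ((r 1 : DihedralGroup n) ^ (-1 - 1 : ℤ)) = n / n.gcd 2 := by
    rw [show (-1 - 1 : ℤ) = -(2 : ℕ) by norm_num, zpow_neg, orderOf_inv, zpow_natCast,
      orderOf_pow' _ two_ne_zero, orderOf_r_one]
  rw [h0] at h1 h2
  refine ⟨_, h1, h2, ?_⟩
  have h3 : σ (u ^ (n : ℤ)) = 1 := by rw [map_zpow, hu, zpow_natCast, r_one_pow_n]
  have h5 := h.zpow_eq_one_of_commute ((centralExt_of_stem hσ).comm h3 v)
  rwa [zpow_natCast] at h5

/-- The quotient map from the dicyclic group to the dihedral group. -/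
def quatToDih (n : ℕ) : QuaternionGroup n →* DihedralGroup n where
  toFun
    | .a i => r (ZMod.castHom (dvd_mul_left n 2) (ZMod n) i)
    | .xa i => sr (ZMod.castHom (dvd_mul_left n 2) (ZMod n) i)
  map_one' := by
    change r (ZMod.castHom (dvd_mul_left n 2) (ZMod n) 0) = r 0
    rw [map_zero]
  map_mul' := by
    rintro (i | i) (j | j)
    · exact congrArg r (map_add _ _ _)
    · exact congrArg sr (map_sub _ _ _)
    · exact congrArg sr (map_add _ _ _)
    · change r (ZMod.castHom (dvd_mul_left n 2) (ZMod n) (n + j - i)) = r _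
      rw [map_sub, map_add, map_natCast, ZMod.natCast_self, zero_add]

theorem mem_ker_quatToDih {n : ℕ} [NeZero n] {x : QuaternionGroup n} :
    x ∈ (quatToDih n).ker ↔ x = 1 ∨ x = QuaternionGroup.a n := by
  constructor
  · intro hx
    rcases x with i | i
    · have h1 : ZMod.castHom (dvd_mul_left n 2) (ZMod n) i = 0 := r.inj hx
      rw [ZMod.castHom_apply, ZMod.cast_eq_val, ZMod.natCast_eq_zero_iff] at h1
      obtain ⟨k, hk⟩ := h1
      have h2 := ZMod.val_lt i
      have h3 : k < 2 := by
        rw [hk, mul_comm] at h2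
        exact lt_of_mul_lt_mul_right h2 (Nat.zero_le _)
      rw [← ZMod.natCast_zmod_val i, hk]
      interval_cases k
      · left; simp
      · right; simp
    · exact absurd (show sr _ = r 0 from hx) (by rintro ⟨⟩)
  · rintro (rfl | rfl)
    · exact one_mem _
    · change r (ZMod.castHom (dvd_mul_left n 2) (ZMod n) n) = r 0
      rw [map_natCast, ZMod.natCast_self]

theorem quatToDih_stem (n : ℕ) [NeZero n] (hn : Even n) :
    Cfsg.IsStemExtension (quatToDih n) ∧ Nat.card (quatToDih n).ker = 2 := by
  have h2n : (n : ZMod (2 * n)) + n = 0 := by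
    rw [← Nat.cast_add, ← two_mul, ZMod.natCast_self]
  refine ⟨⟨?_, ?_, ?_⟩, ?_⟩
  · rintro (i | i)
    · obtain ⟨j, rfl⟩ := ZMod.castHom_surjective (dvd_mul_left n 2) i
      exact ⟨.a j, rfl⟩
    · obtain ⟨j, rfl⟩ := ZMod.castHom_surjective (dvd_mul_left n 2) i
      exact ⟨.xa j, rfl⟩
  · intro x hx
    rcases mem_ker_quatToDih.mp hx with rfl | rfl
    · exact one_mem _
    · rw [Subgroup.mem_center_iff]
      rintro (i | i)
      · simp [add_comm]
      · simp only [QuaternionGroup.xa_mul_a, QuaternionGroup.a_mul_xa]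
        congr 1
        linear_combination h2n
  · intro x hx
    rcases mem_ker_quatToDih.mp hx with rfl | rfl
    · exact one_mem _
    · obtain ⟨k, hk⟩ := hn
      have : (QuaternionGroup.a n : QuaternionGroup n) =
          ⁅QuaternionGroup.a (k : ZMod (2 * n)), QuaternionGroup.xa 0⁆ := by
        rw [commutatorElement_def, eq_mul_inv_iff_mul_eq, eq_mul_inv_iff_mul_eq]
        simp only [QuaternionGroup.xa_mul_a, QuaternionGroup.a_mul_xa]
        congr 1
        have : (n : ZMod (2 * n)) = k + k := by exact_mod_cast congrArg (Nat.cast : ℕ → ZMod (2 * n)) hk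
        linear_combination (-1 : ZMod (2 * n)) * this
      rw [this]
      exact commutator_mem_commutator (mem_top _) (mem_top _)
  · have hne : (1 : QuaternionGroup n) ≠ QuaternionGroup.a n := by
      intro h
      have h1 : ((n : ℕ) : ZMod (2 * n)) = 0 := (QuaternionGroup.a.inj h).symm
      rw [ZMod.natCast_eq_zero_iff] at h1
      have := Nat.le_of_dvd (NeZero.pos n) h1
      have := NeZero.pos n
      omega
    have : ((quatToDih n).ker : Set (QuaternionGroup n)) = {1, QuaternionGroup.a n} :=
      Set.ext fun x => mem_ker_quatToDih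
    change Nat.card ((quatToDih n).ker : Set (QuaternionGroup n)) = 2
    rw [this, Nat.card_coe_set_eq, Set.ncard_pair hne]

end CfsgLib.Schur
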