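import Cfsg.Agent.Lib.Schur.Metacyclic

/-!
The Schur multiplier of a direct product: `M(Q₁ × Q₂) = M(Q₁) × M(Q₂) × (Q₁ᵃᵇ ⊗ Q₂ᵃᵇ)`.
-/

set_option autoImplicit false

universe u v w

namespace CfsgLib.Schur

open Subgroup
open scoped commutatorElement TensorProduct

/-- The tensor product of the abelianizations, written multiplicatively. -/
abbrev AbTensor (Q₁ : Type u) (Q₂ : Type v) [Group Q₁] [Group Q₂] : Type (max u v) :=
  Multiplicative (TensorProduct ℤ (Additive (Abelianization Q₁)) (Additive (Abelianization Q₂)))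

section

variable {Q₁ : Type u} {Q₂ : Type v} [Group Q₁] [Group Q₂]

/-- The pure tensor of the images of two elements. -/
def abTmul (x : Q₁) (y : Q₂) : AbTensor Q₁ Q₂ :=
  Multiplicative.ofAdd
    (Additive.ofMul (Abelianization.of x) ⊗ₜ[ℤ] Additive.ofMul (Abelianization.of y))

theorem abTmul_mul_left (x x' : Q₁) (y : Q₂) : abTmul (x * x') y = abTmul x y * abTmul x' y := by
  simp [abTmul, TensorProduct.add_tmul, ofAdd_add]

theorem abTmul_mul_right (x : Q₁) (y y' : Q₂) : abTmul x (y * y') = abTmul x y * abTmul x y' := by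
  simp [abTmul, TensorProduct.tmul_add, ofAdd_add]

theorem abTmul_one_left (y : Q₂) : abTmul (1 : Q₁) y = 1 := by simp [abTmul]

theorem abTmul_one_right (x : Q₁) : abTmul x (1 : Q₂) = 1 := by simp [abTmul]

theorem eq_top_of_abTmul_mem (H : Subgroup (AbTensor Q₁ Q₂)) (h : ∀ x y, abTmul x y ∈ H)
    (t : AbTensor Q₁ Q₂) : t ∈ H := by
  have key : ∀ s : TensorProduct ℤ (Additive (Abelianization Q₁)) (Additive (Abelianization Q₂)),
      Multiplicative.ofAdd s ∈ H := by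
    intro s
    induction s using TensorProduct.induction_on with
    | zero => exact one_mem _
    | tmul a b =>
      obtain ⟨x, hx⟩ : ∃ x : Q₁, Abelianization.of x = a.toMul := QuotientGroup.mk_surjective _
      obtain ⟨y, hy⟩ : ∃ y : Q₂, Abelianization.of y = b.toMul := QuotientGroup.mk_surjective _
      have := h x y
      rwa [abTmul, hx, hy] at this
    | add a b ha hb => exact mul_mem ha hb
  exact key t.toAdd

/-- Universal property of `AbTensor`. -/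
theorem exists_abTensor_lift {L : Type*} [CommGroup L] (c : Q₁ →* Q₂ →* L) :
    ∃ f : AbTensor Q₁ Q₂ →* L, ∀ x y, f (abTmul x y) = c x y := by
  let c₁ : Abelianization Q₁ →* Q₂ →* L := Abelianization.lift c
  let c₂ : Abelianization Q₂ →* Abelianization Q₁ →* L := Abelianization.lift c₁.flip
  let b : Additive (Abelianization Q₁) →ₗ[ℤ] Additive (Abelianization Q₂) →ₗ[ℤ] Additive L :=
    LinearMap.mk₂ ℤ (fun a b => Additive.ofMul (c₂ b.toMul a.toMul))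
      (by intros; simp) (by intros; simp) (by intros; simp) (by intros; simp)
  exact ⟨AddMonoidHom.toMultiplicativeLeft (TensorProduct.lift b).toAddMonoidHom, fun x y => by
    simp [abTmul, b, c₂, c₁]⟩

/-- The bimultiplicative map on `Γ₁ × Γ₂` with values in `AbTensor Q₁ Q₂`. -/
def prodBilin {Γ₁ Γ₂ : Type*} [Group Γ₁] [Group Γ₂] (σ₁ : Γ₁ →* Q₁) (σ₂ : Γ₂ →* Q₂) :
    Γ₁ × Γ₂ →* Γ₁ × Γ₂ →* AbTensor Q₁ Q₂ where
  toFun x :=
    { toFun := fun y => abTmul (σ₁ x.1) (σ₂ y.2)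
      map_one' := by simp [abTmul_one_right]
      map_mul' := fun y z => by simp [abTmul_mul_right] }
  map_one' := by ext <;> simp [abTmul_one_left]
  map_mul' x y := by ext <;> simp [abTmul_mul_left]

theorem prodBilin_apply {Γ₁ Γ₂ : Type*} [Group Γ₁] [Group Γ₂] (σ₁ : Γ₁ →* Q₁) (σ₂ : Γ₂ →* Q₂)
    (x y : Γ₁ × Γ₂) : prodBilin σ₁ σ₂ x y = abTmul (σ₁ x.1) (σ₂ y.2) := rfl

theorem prod_lower [Finite Q₁] [Finite Q₂] {Γ₁ Γ₂ : Type*} [Group Γ₁] [Group Γ₂]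
    {σ₁ : Γ₁ →* Q₁} {σ₂ : Γ₂ →* Q₂} (h₁ : Cfsg.IsStemExtension σ₁)
    (h₂ : Cfsg.IsStemExtension σ₂) :
    IsCentralExt ((σ₁.prodMap σ₂).comp (BilinExt.proj (prodBilin σ₁ σ₂))) ∧
    ∃ f : σ₁.ker × σ₂.ker × AbTensor Q₁ Q₂ →
      stemKer ((σ₁.prodMap σ₂).comp (BilinExt.proj (prodBilin σ₁ σ₂))), Function.Injective f := by
  constructor
  · refine ⟨(h₁.1.prodMap h₂.1).comp BilinExt.proj_surjective, fun x hx => ?_⟩
    have h3 : σ₁ x.g.1 = 1 := congrArg Prod.fst hx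
    have h4 : σ₂ x.g.2 = 1 := congrArg Prod.snd hx
    refine BilinExt.mem_center ?_ fun g => ?_
    · rw [Subgroup.mem_center_iff]
      intro g
      exact Prod.ext ((centralExt_of_stem h₁).comm h3 _) ((centralExt_of_stem h₂).comm h4 _)
    · rw [prodBilin_apply, prodBilin_apply, h3, h4, abTmul_one_left, abTmul_one_right]
  · let i₁ : Γ₁ →* BilinExt (prodBilin σ₁ σ₂) :=
      { toFun := fun x => ⟨1, (x, 1)⟩
        map_one' := rfl
        map_mul' := fun x y => by ext <;> simp [prodBilin_apply, abTmul_one_right] }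
    let i₂ : Γ₂ →* BilinExt (prodBilin σ₁ σ₂) :=
      { toFun := fun x => ⟨1, (1, x)⟩
        map_one' := rfl
        map_mul' := fun x y => by ext <;> simp [prodBilin_apply, abTmul_one_left] }
    have k₁ : ∀ k : σ₁.ker, i₁ k ∈ commutator (BilinExt (prodBilin σ₁ σ₂)) := fun k => by
      have : i₁ k ∈ (commutator Γ₁).map i₁ := ⟨k, h₁.2.2 k.2, rfl⟩
      rw [map_commutator_eq] at this
      exact commutator_mono le_top le_top this
    have k₂ : ∀ k : σ₂.ker, i₂ k ∈ commutator (BilinExt (prodBilin σ₁ σ₂)) := fun k => by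
      have : i₂ k ∈ (commutator Γ₂).map i₂ := ⟨k, h₂.2.2 k.2, rfl⟩
      rw [map_commutator_eq] at this
      exact commutator_mono le_top le_top this
    have k₃ : ∀ t, BilinExt.inl _ t ∈ commutator (BilinExt (prodBilin σ₁ σ₂)) := by
      refine eq_top_of_abTmul_mem ((commutator _).comap (BilinExt.inl _)) fun x y => ?_
      obtain ⟨x, rfl⟩ := h₁.1 x
      obtain ⟨y, rfl⟩ := h₂.1 y
      have := BilinExt.inl_mem_commutator (β := prodBilin σ₁ σ₂) (x := (x, 1)) (y := (1, y))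
        (by simp [Commute, SemiconjBy])
      simpa [prodBilin_apply, abTmul_one_left] using this
    refine ⟨fun p => ⟨BilinExt.inl _ p.2.2 * i₁ p.1 * i₂ p.2.1, ?_,
      mul_mem (mul_mem (k₃ _) (k₁ _)) (k₂ _)⟩, ?_⟩
    · have h3 : σ₁ p.1 = 1 := p.1.2
      have h4 : σ₂ p.2.1 = 1 := p.2.1.2
      change (σ₁.prodMap σ₂) _ = 1
      simp [i₁, i₂, h3, h4]
    · rintro ⟨a, b, t⟩ ⟨a', b', t'⟩ h
      have h1 := congrArg (fun x : stemKer _ => x.1.t) h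
      have h2 := congrArg (fun x : stemKer _ => x.1.g) h
      have h3 : σ₁ a = 1 := a.2
      have h4 : σ₁ a' = 1 := a'.2
      simp [i₁, i₂, prodBilin_apply, h3, h4, abTmul_one_left] at h1 h2
      rw [h1, h2.1, h2.2]

theorem prod_upper {A : Type*} {B : Type*} [CommGroup A] [CommGroup B]
    (hA : Cfsg.HasSchurMultiplier Q₁ A) (hB : Cfsg.HasSchurMultiplier Q₂ B)
    {Δ : Type*} [Group Δ] {τ : Δ →* Q₁ × Q₂} (hτ : Cfsg.IsStemExtension τ) :
    ∃ π : A × B × AbTensor Q₁ Q₂ →* τ.ker, Function.Surjective π := by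
  have hc := centralExt_of_stem hτ
  have := hc.ker_isMulCommutative
  let D₁ : Subgroup Δ := ((MonoidHom.snd Q₁ Q₂).comp τ).ker
  let D₂ : Subgroup Δ := ((MonoidHom.fst Q₁ Q₂).comp τ).ker
  let τ₁ : D₁ →* Q₁ := (MonoidHom.fst Q₁ Q₂).comp (τ.comp D₁.subtype)
  let τ₂ : D₂ →* Q₂ := (MonoidHom.snd Q₁ Q₂).comp (τ.comp D₂.subtype)
  have m₁ : ∀ x : D₁, τ₁ x = 1 → τ x = 1 := fun x hx => Prod.ext hx x.2
  have m₂ : ∀ x : D₂, τ₂ x = 1 → τ x = 1 := fun x hx => Prod.ext x.2 hx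
  have s₁ : Function.Surjective τ₁ := fun q => by
    obtain ⟨d, hd⟩ := hτ.1 (q, 1)
    exact ⟨⟨d, congrArg Prod.snd hd⟩, congrArg Prod.fst hd⟩
  have s₂ : Function.Surjective τ₂ := fun q => by
    obtain ⟨d, hd⟩ := hτ.1 (1, q)
    exact ⟨⟨d, congrArg Prod.fst hd⟩, congrArg Prod.snd hd⟩
  have c₁ : IsCentralExt τ₁ := ⟨s₁, fun x hx => Subgroup.mem_center_iff.mpr fun y =>
    Subtype.ext (hc.comm (m₁ x hx) y)⟩
  have c₂ : IsCentralExt τ₂ := ⟨s₂, fun x hx => Subgroup.mem_center_iff.mpr fun y =>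
    Subtype.ext (hc.comm (m₂ x hx) y)⟩
  obtain ⟨f₁, hf₁⟩ := exists_surj_stemKer hA c₁
  obtain ⟨f₂, hf₂⟩ := exists_surj_stemKer hB c₂
  let j₁ : stemKer τ₁ →* τ.ker :=
    (D₁.subtype.comp (stemKer τ₁).subtype).codRestrict _ fun x => m₁ _ x.2.1
  let j₂ : stemKer τ₂ →* τ.ker :=
    (D₂.subtype.comp (stemKer τ₂).subtype).codRestrict _ fun x => m₂ _ x.2.1
  have hcom : ∀ (x : D₁) (y : D₂), ⁅(x : Δ), (y : Δ)⁆ ∈ τ.ker := by
    intro x y
    have h1 : (τ x).2 = 1 := x.2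
    have h2 : (τ y).1 = 1 := y.2
    rw [MonoidHom.mem_ker, map_commutatorElement]
    ext <;> simp [commutatorElement_def, h1, h2]
  choose l₁ hl₁ using s₁
  choose l₂ hl₂ using s₂
  have hind : ∀ (x : D₁) (y : D₂), ⁅(l₁ (τ₁ x) : Δ), (l₂ (τ₂ y) : Δ)⁆ = ⁅(x : Δ), (y : Δ)⁆ := by
    intro x y
    have h1 : ((x⁻¹ * l₁ (τ₁ x) : D₁) : Δ) ∈ center Δ := hτ.2.1 (m₁ _ (by simp [hl₁]))
    have h2 : ((y⁻¹ * l₂ (τ₂ y) : D₂) : Δ) ∈ center Δ := hτ.2.1 (m₂ _ (by simp [hl₂]))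
    have := commutatorElement_mul_central (a := (x : Δ)) (b := (y : Δ)) h1 h2
    simpa using this
  open scoped IsMulCommutative in
  let c : Q₁ →* Q₂ →* τ.ker := MonoidHom.mk' (fun x => MonoidHom.mk'
    (fun y => ⟨⁅(l₁ x : Δ), (l₂ y : Δ)⁆, hcom _ _⟩) (by
      intro y y'
      apply Subtype.ext
      have h1 := hind (l₁ x) (l₂ y * l₂ y')
      rw [map_mul, hl₁, hl₂, hl₂] at h1
      change ⁅(l₁ x : Δ), (l₂ (y * y') : Δ)⁆ = ⁅(l₁ x : Δ), (l₂ y : Δ)⁆ * ⁅(l₁ x : Δ), (l₂ y' : Δ)⁆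
      rw [h1, Subgroup.coe_mul, commutatorElement_mul_right_eq_mul_conj,
        hc.comm (hcom (l₁ x) (l₂ y')) (⁅(l₁ x : Δ), (l₂ y : Δ)⁆ * (l₂ y : Δ)), mul_assoc,
        mul_inv_cancel_right, hc.comm (hcom (l₁ x) (l₂ y'))])) (by
      intro x x'
      ext y
      have h1 := hind (l₁ x * l₁ x') (l₂ y)
      rw [map_mul, hl₁, hl₁, hl₂] at h1
      change ⁅(l₁ (x * x') : Δ), (l₂ y : Δ)⁆ = ⁅(l₁ x : Δ), (l₂ y : Δ)⁆ * ⁅(l₁ x' : Δ), (l₂ y : Δ)⁆
      rw [h1, Subgroup.coe_mul, commutatorElement_mul_left_eq_conj_mul,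
        hc.comm (hcom (l₁ x') (l₂ y)) (l₁ x : Δ), mul_inv_cancel_right,
        hc.comm (hcom (l₁ x') (l₂ y))])
  open scoped IsMulCommutative in
  obtain ⟨f₃, hf₃⟩ := exists_abTensor_lift c
  open scoped IsMulCommutative in
  refine ⟨(j₁.comp f₁).coprod ((j₂.comp f₂).coprod f₃), fun l => ?_⟩
  let W : Subgroup Δ := (τ.ker.subtype.comp f₃).range
  have hW : W ≤ τ.ker := by rintro _ ⟨t, rfl⟩; exact (f₃ t).2
  have := hc.normal_of_le_ker hW
  let N : Subgroup Δ := ⁅D₁, D₁⁆ ⊔ (⁅D₂, D₂⁆ ⊔ W)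
  have hN : commutator Δ ≤ N := by
    rw [← Normal.quotient_commutative_iff_commutator_le]
    have e : ∀ a b : Δ, ⁅a, b⁆ ∈ N → Commute (a : Δ ⧸ N) (b : Δ ⧸ N) := by
      intro a b h
      rw [← commutatorElement_eq_one_iff_commute]
      exact (map_commutatorElement (QuotientGroup.mk' N) a b).symm.trans
        ((QuotientGroup.eq_one_iff _).mpr h)
    have e12 : ∀ (x : D₁) (y : D₂), Commute ((x : Δ) : Δ ⧸ N) ((y : Δ) : Δ ⧸ N) := by
      intro x y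
      refine e _ _ (mem_sup_right (mem_sup_right ⟨abTmul (τ₁ x) (τ₂ y), ?_⟩))
      rw [← hind]
      exact congrArg Subtype.val (hf₃ _ _)
    have e11 : ∀ (x y : D₁), Commute ((x : Δ) : Δ ⧸ N) ((y : Δ) : Δ ⧸ N) := fun x y =>
      e _ _ (mem_sup_left (commutator_mem_commutator x.2 y.2))
    have e22 : ∀ (x y : D₂), Commute ((x : Δ) : Δ ⧸ N) ((y : Δ) : Δ ⧸ N) := fun x y =>
      e _ _ (mem_sup_right (mem_sup_left (commutator_mem_commutator x.2 y.2)))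
    have dec : ∀ z : Δ ⧸ N, ∃ (x : D₁) (y : D₂), z = ((x : Δ) : Δ ⧸ N) * ((y : Δ) : Δ ⧸ N) := by
      intro z
      obtain ⟨z, rfl⟩ := QuotientGroup.mk_surjective z
      refine ⟨l₁ (τ z).1, ⟨(l₁ (τ z).1 : Δ)⁻¹ * z, ?_⟩, by simp⟩
      have h1 : (τ (l₁ (τ z).1)).1 = (τ z).1 := hl₁ _
      change (τ _).1 = 1
      simp [h1]
    refine ⟨⟨fun a b => ?_⟩⟩
    obtain ⟨x, y, rfl⟩ := dec a
    obtain ⟨x', y', rfl⟩ := dec b
    exact ((e11 x x').mul_right (e12 x y')).mul_left ((e12 x' y).symm.mul_right (e22 y y'))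
  have h1 := hN (hτ.2.2 l.2)
  obtain ⟨d₁, hd₁, u, hu, h2⟩ := mem_sup_of_normal_left.mp h1
  obtain ⟨d₂, hd₂, w, ⟨t, rfl⟩, rfl⟩ := mem_sup_of_normal_left.mp hu
  rw [← D₁.map_subtype_commutator] at hd₁
  rw [← D₂.map_subtype_commutator] at hd₂
  obtain ⟨d₁, hd₁, rfl⟩ := hd₁
  obtain ⟨d₂, hd₂, rfl⟩ := hd₂
  have h3 : τ d₁ * τ d₂ = 1 := by
    have h4 : τ l = 1 := l.2
    have h5 : τ (f₃ t) = 1 := (f₃ t).2
    rw [← h2] at h4
    simpa [h5] using h4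
  have h4 : τ₁ d₁ = 1 := by
    have h5 : (τ d₂).1 = 1 := d₂.2
    have := congrArg Prod.fst h3
    rw [Prod.fst_mul, h5, mul_one] at this
    exact this
  have h5 : τ₂ d₂ = 1 := by
    have h5 : (τ d₁).2 = 1 := d₁.2
    have := congrArg Prod.snd h3
    rw [Prod.snd_mul, h5, one_mul] at this
    exact this
  obtain ⟨a, ha⟩ := hf₁ ⟨d₁, h4, hd₁⟩
  obtain ⟨b, hb⟩ := hf₂ ⟨d₂, h5, hd₂⟩
  refine ⟨(a, b, t), Subtype.ext ?_⟩
  rw [← h2]
  simp [ha, hb, j₁, j₂]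
  rfl

theorem mult_prod [Finite Q₁] [Finite Q₂] {A : Type*} {B : Type*} [CommGroup A] [CommGroup B]
    (hA : Cfsg.HasSchurMultiplier Q₁ A) (hB : Cfsg.HasSchurMultiplier Q₂ B) :
    Cfsg.HasSchurMultiplier (Q₁ × Q₂) (A × B × AbTensor Q₁ Q₂) := by
  obtain ⟨Γ₁, _, _, σ₁, h₁, ⟨e₁⟩⟩ := hA.1
  obtain ⟨Γ₂, _, _, σ₂, h₂, ⟨e₂⟩⟩ := hB.1
  obtain ⟨hc, f, hf⟩ := prod_lower h₁ h₂
  have := hc.finite_stemKer
  let e : A × B × AbTensor Q₁ Q₂ ≃ σ₁.ker × σ₂.ker × AbTensor Q₁ Q₂ :=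
    e₁.symm.toEquiv.prodCongr (e₂.symm.toEquiv.prodCongr (Equiv.refl _))
  have : Finite (A × B × AbTensor Q₁ Q₂) := Finite.of_injective _ (hf.comp e.injective)
  exact mult_of_bounds (fun Δ _ _ τ hτ => prod_upper hA hB hτ) hc
    (Nat.card_le_card_of_injective _ (hf.comp e.injective))

theorem subsingleton_abTensor
    (h : (Nat.card (Abelianization Q₁)).Coprime (Nat.card (Abelianization Q₂))) :
    Subsingleton (AbTensor Q₁ Q₂) := by
  refine subsingleton_of_forall_eq 1 fun t => mem_bot.mp (eq_top_of_abTmul_mem ⊥ (fun x y => ?_) t)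
  have h1 : abTmul x y ^ Nat.card (Abelianization Q₁) = 1 := by
    apply Multiplicative.toAdd.injective
    rw [toAdd_pow, abTmul, toAdd_ofAdd, TensorProduct.smul_tmul', ← ofMul_pow, pow_card_eq_one']
    simp
  have h2 : abTmul x y ^ Nat.card (Abelianization Q₂) = 1 := by
    apply Multiplicative.toAdd.injective
    rw [toAdd_pow, abTmul, toAdd_ofAdd, ← TensorProduct.tmul_smul, ← ofMul_pow, pow_card_eq_one']
    simp
  have := pow_gcd_eq_one.mpr ⟨h1, h2⟩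
  rwa [h, pow_one] at this

end

end CfsgLib.Schur
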