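import Cfsg.Agent.Lib.Schur.Restrict

/-!
The transfer `M(Q) → M(U)` for a subgroup `U` of a finite group `Q`; composed with the natural map
`M(U) → M(Q)` it is the `[Q : U]`-th power.
-/

set_option autoImplicit false

universe u v w

namespace CfsgLib.Schur

open Subgroup
open scoped commutatorElement

theorem mem_stemKer_hopf_of_pow {F Q : Type*} [Group F] [Group Q] [IsFreeGroup F] (π : F →* Q)
    {z : HopfExt π} (hz : hopfMap π z = 1) {n : ℕ} (hn : n ≠ 0) (h : z ^ n = 1) :
    z ∈ stemKer (hopfMap π) :=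
  ⟨hz, mem_commutator_of_pow_mem_hopf π hn (by rw [h]; exact one_mem _)⟩

open scoped IsMulCommutative in
theorem exists_hopf_transfer {F Q : Type*} [Group F] [Group Q] [Finite Q] [IsFreeGroup F]
    {π : F →* Q} (hπ : Function.Surjective π) (U : Subgroup Q) :
    ∃ (i : stemKer (hopfMap (restrictExt π U)) →* stemKer (hopfMap π))
      (N : stemKer (hopfMap π) →* stemKer (hopfMap (restrictExt π U))),
      ∀ z, i (N z) = z ^ U.index := by
  classical
  set FU := U.comap π
  set πU := restrictExt π U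
  have hc := isCentralExt_hopfMap hπ
  have hcU := isCentralExt_hopfMap (restrictExt_surjective hπ U)
  have hle : π.ker ≤ FU := fun x hx => by
    rw [mem_comap, show π x = 1 from hx]; exact one_mem _
  have := hcU.ker_isMulCommutative
  have := hc.ker_isMulCommutative
  have hidx : FU.index = U.index := index_comap_of_surjective U hπ
  have : FU.FiniteIndex := ⟨by rw [hidx]; exact FiniteIndex.index_ne_zero⟩
  let _ := FU.fintypeQuotientOfFiniteIndex
  -- the natural map
  have hι : ⁅πU.ker, (⊤ : Subgroup FU)⁆ ≤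
      ((QuotientGroup.mk' ⁅π.ker, (⊤ : Subgroup F)⁆).comp FU.subtype).ker := by
    rw [commutator_le]
    intro a ha b _
    rw [MonoidHom.mem_ker, MonoidHom.comp_apply, QuotientGroup.mk'_apply, QuotientGroup.eq_one_iff,
      map_commutatorElement]
    exact commutator_mem_commutator (restrictExt_eq_one_iff.mp ha) (mem_top _)
  let ι : HopfExt πU →* HopfExt π := QuotientGroup.lift _ _ hι
  have hι1 : ∀ z, hopfMap πU z = 1 → hopfMap π (ι z) = 1 := by
    intro z hz
    obtain ⟨z, rfl⟩ := QuotientGroup.mk_surjective z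
    exact restrictExt_eq_one_iff.mp hz
  let ιk : (hopfMap πU).ker →* (hopfMap π).ker :=
    (ι.comp (hopfMap πU).ker.subtype).codRestrict _ fun z => hι1 z z.2
  let i : stemKer (hopfMap πU) →* stemKer (hopfMap π) :=
    (ι.comp (stemKer _).subtype).codRestrict _ fun z => ⟨hι1 z z.2.1, by
      have : ι z ∈ (commutator _).map ι := ⟨z, z.2.2, rfl⟩
      rw [map_commutator_eq] at this
      exact commutator_mono le_top le_top this⟩
  -- the norm map
  let φ : π.ker →* (hopfMap πU).ker :=
    ((QuotientGroup.mk' _).comp (Subgroup.inclusion hle)).codRestrict _ fun r =>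
      restrictExt_eq_one_iff.mpr r.2
  let mkR : π.ker →* (hopfMap π).ker :=
    ((QuotientGroup.mk' _).comp π.ker.subtype).codRestrict _ fun r => r.2
  have hmk : Function.Surjective mkR := by
    rintro ⟨z, hz⟩
    obtain ⟨z, rfl⟩ := QuotientGroup.mk_surjective z
    exact ⟨⟨z, hz⟩, rfl⟩
  have hφ : ∀ (y : F) (_ : y ∈ FU) (r : π.ker), φ (MulAut.conjNormal y r) = φ r := by
    intro y hy r
    apply Subtype.ext
    have h1 := hcU.comm (φ r).2 ((⟨y, hy⟩ : FU) : HopfExt πU)
    change (((⟨y, hy⟩ : FU) * Subgroup.inclusion hle r * (⟨y, hy⟩ : FU)⁻¹ : FU) : HopfExt πU) = _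
    rw [QuotientGroup.mk_mul, QuotientGroup.mk_mul, QuotientGroup.mk_inv, mul_inv_eq_iff_eq_mul]
    exact h1
  have hmkR : ∀ (y : F) (r : π.ker), mkR (MulAut.conjNormal y r) = mkR r := by
    intro y r
    apply Subtype.ext
    have h1 := hc.comm (mkR r).2 (y : HopfExt π)
    change ((y * r * y⁻¹ : F) : HopfExt π) = _
    rw [QuotientGroup.mk_mul, QuotientGroup.mk_mul, QuotientGroup.mk_inv, mul_inv_eq_iff_eq_mul]
    exact h1
  let ψ : F → π.ker →* (hopfMap πU).ker := fun x =>
    φ.comp (MulAut.conjNormal x⁻¹ : MulAut π.ker).toMonoidHom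
  have hψ : ∀ x x' : F, (x : F ⧸ FU) = x' → ψ x = ψ x' := by
    intro x x' h
    ext1 r
    have h1 := hφ _ (FU.inv_mem (QuotientGroup.eq.mp h)) (MulAut.conjNormal x⁻¹ r)
    rw [← MulAut.mul_apply, ← map_mul] at h1
    simpa [ψ] using h1.symm
  let n : π.ker →* (hopfMap πU).ker := ∏ q : F ⧸ FU, ψ q.out
  have hn : ∀ (g : F) (r : π.ker), n (MulAut.conjNormal g r) = n r := by
    intro g r
    simp only [n, MonoidHom.finsetProd_apply]
    refine Fintype.prod_equiv (MulAction.toPerm g⁻¹) _ _ fun q => ?_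
    rw [hψ ((MulAction.toPerm g⁻¹ q).out) (g⁻¹ * q.out) (by
      rw [QuotientGroup.out_eq', MulAction.toPerm_apply, ← smul_eq_mul,
        ← MulAction.Quotient.smul_mk, QuotientGroup.out_eq'])]
    simp [ψ]
  have hker : mkR.ker ≤ n.ker := by
    have h1 : ⁅π.ker, (⊤ : Subgroup F)⁆ ≤ n.ker.map π.ker.subtype := by
      rw [commutator_le]
      intro a ha b _
      refine ⟨⟨a, ha⟩ * MulAut.conjNormal b (⟨a, ha⟩ : π.ker)⁻¹, ?_, ?_⟩
      · rw [SetLike.mem_coe, MonoidHom.mem_ker, map_mul, hn, ← map_mul, mul_inv_cancel, map_one]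
      · simp [commutatorElement_def, mul_assoc]
    intro r hr
    have h2 : (r : F) ∈ ⁅π.ker, (⊤ : Subgroup F)⁆ :=
      (QuotientGroup.eq_one_iff _).mp (congrArg Subtype.val hr)
    obtain ⟨s, hs, hsr⟩ := h1 h2
    rwa [← Subtype.ext hsr]
  let N₀ := mkR.liftOfSurjective hmk ⟨n, hker⟩
  have hN₀ : ∀ r, N₀ (mkR r) = n r := fun r => MonoidHom.liftOfRightInverse_comp_apply _ _ _ _ r
  have hcomp : ∀ z, ιk (N₀ z) = z ^ U.index := by
    intro z
    obtain ⟨r, rfl⟩ := hmk z
    rw [hN₀]
    simp only [n, MonoidHom.finsetProd_apply]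
    have h1 : ∀ x : F, ιk (ψ x r) = mkR r := fun x => hmkR x⁻¹ r
    rw [map_prod, Finset.prod_congr rfl (fun q _ => h1 _), Finset.prod_const,
      ← hidx, index_eq_card, Nat.card_eq_fintype_card, Finset.card_univ]
  let N : stemKer (hopfMap π) →* stemKer (hopfMap πU) :=
    ((hopfMap πU).ker.subtype.comp (N₀.comp (Subgroup.inclusion (stemKer_le_ker _)))).codRestrict _
      fun z => mem_stemKer_hopf_of_pow πU (N₀ _).2 (Nat.card_pos (α := Q)).ne' (by
        rw [← map_pow]
        have : z ^ Nat.card Q = 1 := Subtype.ext (hc.pow_card_eq_one z.2)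
        rw [this, map_one])
  refine ⟨i, N, fun z => ?_⟩
  have h1 := congrArg Subtype.val (hcomp (Subgroup.inclusion (stemKer_le_ker _) z))
  exact Subtype.ext h1

/-- Natural map and transfer between the multipliers of a finite group and of a subgroup. -/
theorem exists_transfer {Q : Type u} [Group Q] {A : Type v} [CommGroup A]
    (hA : Cfsg.HasSchurMultiplier Q A) (U : Subgroup Q) {B : Type w} [CommGroup B]
    (hB : Cfsg.HasSchurMultiplier U B) :
    ∃ (i : B →* A) (N : A →* B), ∀ a, i (N a) = a ^ U.index := by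
  have := finite_base_of_mult hA
  obtain ⟨eA⟩ := (hasSchurMultiplier_iff_hopf canPres_surjective).mp hA
  obtain ⟨eB⟩ := (hasSchurMultiplier_iff_hopf
    (restrictExt_surjective canPres_surjective U)).mp hB
  obtain ⟨i, N, h⟩ := exists_hopf_transfer (canPres_surjective (Q := Q)) U
  exact ⟨eA.symm.toMonoidHom.comp (i.comp eB.toMonoidHom),
    eB.symm.toMonoidHom.comp (N.comp eA.toMonoidHom), fun a => by simp [h]⟩

end CfsgLib.Schur
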